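import Cfsg.Agent.CoprimeFix.Subgroup
import Cfsg.Agent.OddStep.Interface

/-!
S1329, given the odd order theorem.
-/

set_option autoImplicit false

namespace CfsgLib.CoprimeFix

open CfsgLib

universe u

/-- S1329 from S0205. -/
theorem coprime_commutator_generation_of (hodd : OddStep.P0205.{u}) {G : Type u} [Group G] [Finite G]
    (A B Y : Subgroup G) (hA2 : IsPGroup 2 ↥A) (hAc : IsMulCommutative ↥A) (hB : B ≤ A)
    (hYodd : Odd (Nat.card ↥Y)) (hAY : A ≤ Subgroup.normalizer (Y : Set G)) (hYA : ⁅Y, A⁆ = Y) :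
    Y ⊓ Subgroup.centralizer (B : Set G) =
      ⨆ B₀ : {B₀ : Subgroup G // B₀ ≤ B ∧ ∀ [(B₀.subgroupOf B).Normal], IsCyclic (↥B ⧸ B₀.subgroupOf B)},
        Y ⊓ Subgroup.centralizer (B : Set G) ⊓
          ⁅Y ⊓ Subgroup.centralizer ((B₀ : Subgroup G) : Set G), A⁆ := by
  refine le_antisymm (inf_centralizer_le_iSup hAc hB hAY ?_ (hodd hYodd) hYA)
    (iSup_le fun _ => inf_le_left)
  obtain ⟨n, hn⟩ := IsPGroup.iff_card.mp hA2
  rw [hn]
  exact ((Nat.coprime_two_left).mpr hYodd).pow_left n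

end CfsgLib.CoprimeFix
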