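import Cfsg.Agent.CoprimeFix.Main

/-!
The fixed points of a subgroup `B` of the acting abelian group `A`.
-/

set_option autoImplicit false

open scoped commutatorElement

namespace CfsgLib.CoprimeFix

open CfsgLib.Coprime

variable {X : Type*} [Group X]

theorem isCyclic_quotient_of_cocyclic {A B C : Subgroup X} (hA : IsMulCommutative A) (hCA : C ≤ A)
    (hB : B ≤ A) {a : X} (ha : a ∈ A) (hCa : C ⊔ Subgroup.zpowers a = A)
    [((C ⊓ B).subgroupOf B).Normal] : IsCyclic (↥B ⧸ (C ⊓ B).subgroupOf B) := by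
  haveI : IsMulCommutative A := hA
  haveI : (C.subgroupOf A).Normal := Subgroup.normal_of_comm _
  haveI hc : IsCyclic (↥A ⧸ C.subgroupOf A) := by
    refine ⟨⟨QuotientGroup.mk' _ ⟨a, ha⟩, fun x => ?_⟩⟩
    induction x using QuotientGroup.induction_on with
    | H x =>
    have hx : (x : X) ∈ C ⊔ Subgroup.zpowers a := hCa.symm ▸ x.2
    rw [← SetLike.mem_coe, Subgroup.coe_mul_of_left_le_normalizer_right C (Subgroup.zpowers a)
      (fun c hc => Subgroup.centralizer_le_normalizer _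
        (Subgroup.mem_centralizer_iff.mpr fun y hy =>
          congrArg Subtype.val (hA.1.comm ⟨y, Subgroup.zpowers_le.mpr ha hy⟩ ⟨c, hCA hc⟩)))] at hx
    obtain ⟨c, hc, y, ⟨m, rfl⟩, hxe⟩ := hx
    refine ⟨m, ?_⟩
    show QuotientGroup.mk' (C.subgroupOf A) (⟨a, ha⟩ : ↥A) ^ m = _
    rw [← map_zpow]
    refine QuotientGroup.eq.mpr (Subgroup.mem_subgroupOf.mpr ?_)
    simp only [Subgroup.coe_mul, InvMemClass.coe_inv, SubgroupClass.coe_zpow]
    rw [← hxe]
    show (a ^ m)⁻¹ * (c * a ^ m) ∈ C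
    have hcom : c * a ^ m = a ^ m * c :=
      congrArg Subtype.val (hA.1.comm ⟨c, hCA hc⟩ ⟨a ^ m, zpow_mem ha m⟩)
    rw [show c * a ^ m = a ^ m * c from hcom, inv_mul_cancel_left]
    exact hc
  let ψ : ↥B ⧸ (C ⊓ B).subgroupOf B →* ↥A ⧸ C.subgroupOf A :=
    QuotientGroup.map _ _ (Subgroup.inclusion hB) fun b hb => hb.1
  refine isCyclic_of_injective ψ ?_
  rw [← MonoidHom.ker_eq_bot_iff, eq_bot_iff]
  intro x hx
  induction x using QuotientGroup.induction_on with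
  | H x =>
  have h : (x : X) ∈ C :=
    ((QuotientGroup.eq_one_iff (Subgroup.inclusion hB x)).mp hx : _ ∈ C.subgroupOf A)
  exact Subgroup.mem_bot.mpr ((QuotientGroup.eq_one_iff _).mpr ⟨h, x.2⟩)

/-- `C_Y(B)` is generated by its parts in the `⁅C_Y(B₀), A⁆`, `B / B₀` cyclic. -/
theorem inf_centralizer_le_iSup [Finite X] {A B Y : Subgroup X} (hA : IsMulCommutative A) (hB : B ≤ A)
    (hAY : A ≤ Subgroup.normalizer (Y : Set X)) (hcop : (Nat.card A).Coprime (Nat.card Y))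
    (hsol : Group.IsSolvable Y) (hYA : ⁅Y, A⁆ = Y) :
    Y ⊓ Subgroup.centralizer (B : Set X) ≤
      ⨆ B₀ : {B₀ : Subgroup X // B₀ ≤ B ∧ ∀ [(B₀.subgroupOf B).Normal], IsCyclic (↥B ⧸ B₀.subgroupOf B)},
        Y ⊓ Subgroup.centralizer (B : Set X) ⊓
          ⁅Y ⊓ Subgroup.centralizer ((B₀ : Subgroup X) : Set X), A⁆ := by
  set K := ⨆ B₀ : {B₀ : Subgroup X // B₀ ≤ B ∧ ∀ [(B₀.subgroupOf B).Normal], IsCyclic (↥B ⧸ B₀.subgroupOf B)},
    Y ⊓ Subgroup.centralizer (B : Set X) ⊓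
      ⁅Y ⊓ Subgroup.centralizer ((B₀ : Subgroup X) : Set X), A⁆
  set CB := Y ⊓ Subgroup.centralizer (B : Set X) with hCB
  have hle : ∀ B₀ : Subgroup X, B₀ ≤ B →
      (∀ [(B₀.subgroupOf B).Normal], IsCyclic (↥B ⧸ B₀.subgroupOf B)) →
      CB ⊓ ⁅Y ⊓ Subgroup.centralizer (B₀ : Set X), A⁆ ≤ K := fun B₀ h1 h2 =>
    le_iSup (fun B₀ : {B₀ : Subgroup X // B₀ ≤ B ∧
        ∀ [(B₀.subgroupOf B).Normal], IsCyclic (↥B ⧸ B₀.subgroupOf B)} =>
      Y ⊓ Subgroup.centralizer (B : Set X) ⊓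
        ⁅Y ⊓ Subgroup.centralizer ((B₀ : Subgroup X) : Set X), A⁆) ⟨B₀, h1, h2⟩
  have hACB : A ≤ Subgroup.normalizer (CB : Set X) :=
    le_normalizer_inf' hAY (le_normalizer_centralizer_of_comm hA hB)
  have hsub : Subsingleton (↥B ⧸ B.subgroupOf B) := by
    rw [Subgroup.subgroupOf_self]; exact QuotientGroup.subsingleton_quotient_top
  rw [← eq_commutator_sup_centralizer hACB (coprime_of_le le_rfl inf_le_left hcop)
    (Or.inl (isSolvable_of_isMulCommutative hA))]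
  refine sup_le (le_trans (le_inf (commutator_le_of_le_normalizer hACB) le_rfl)
    (hle B le_rfl (fun {_} => isCyclic_of_subsingleton))) ?_
  refine le_trans (inf_le_inf_right _ inf_le_left) ?_
  refine (inf_centralizer_le_fixGen hA hAY hcop hsol hYA).trans (iSup_le ?_)
  rintro ⟨C, hC, a, ha, hCa⟩
  refine le_trans (inf_le_inf (inf_le_inf_left _ (Subgroup.centralizer_le hB))
    (Subgroup.commutator_mono (inf_le_inf_left _ (Subgroup.centralizer_le (inf_le_left : C ⊓ B ≤ C)))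
      le_rfl)) (hle (C ⊓ B) inf_le_right ?_)
  intro _
  exact isCyclic_quotient_of_cocyclic hA hC hB ha hCa

end CfsgLib.CoprimeFix
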